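import Cfsg.Agent.Lib.Helper96.OAsch.O13Core
import Cfsg.Agent.Lib.Helper35.OAsch.O11
import Cfsg.Agent.Lib.Helper21.OAsch.O12

set_option autoImplicit false

/-! # Piece O13 of the orthogonal campaign: a simple minimal normal subgroup -/

namespace Cfsg.Agent.Lib.Helper96.OAsch

open Cfsg Cfsg.Geo Matrix Cfsg.Agent.Lib.Helper13.Asch Cfsg.Agent.Lib.Helper21.OAsch
open scoped Kronecker MatrixGroups

variable {ι : Type} [Fintype ι] [DecidableEq ι] {F : Type*} [Field F] {Q : (ι → F) → F}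
  {G : Matrix ι ι F}

theorem residual_of_simple_orth [Fintype F] (hO : OData Q G) {H N : Subgroup (GL ι F)}
    (hH : Iso G H) (h : MinNormal H N) (henv : env N = ⊤) (hperf : ⁅N, N⁆ = N)
    (hsimple : ∀ L : Subgroup (GL ι F), H ⊓ scalars ι F ≤ L → L ≤ N → Nrm N L →
      L = H ⊓ scalars ι F ∨ L = N) :
    C5 Q H ∨ InOrthogonalResidualClass H := by
  have hne : Nonempty ι := by
    rw [← Fintype.card_pos_iff]
    exact hO.odd.pos
  have hN : Iso G N := fun x hx => hH x (h.le hx)
  exact residual_of_simple_orth_core h henv hperf hsimple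
    (fun F₀ hF₀ hr => Cfsg.Agent.Lib.Helper35.OAsch.orth_subfield hO H N h.nrm henv hN F₀ hF₀ hr)
    (fun σ u hu hfix => Cfsg.Agent.Lib.Helper21.OAsch.realisable_of_unitary hO N henv hN σ u hu hfix)

end Cfsg.Agent.Lib.Helper96.OAsch
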