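import Cfsg.Agent.Lib.Helper96.OAsch.O15cCore
import Cfsg.Agent.Lib.Helper69.OAsch.O5
import Cfsg.Agent.Lib.Helper69.OAsch.O6
import Cfsg.Agent.Lib.Helper69.OAsch.O8

set_option autoImplicit false

/-! # Piece O15c of the orthogonal campaign: an abelian nonscalar normal subgroup -/

namespace Cfsg.Agent.Lib.Helper96.OAsch

open Cfsg Cfsg.Geo Matrix Cfsg.Agent.Lib.Helper13.Asch Cfsg.Agent.Lib.Helper21.OAsch
open scoped Kronecker MatrixGroups

variable {ι : Type} [Fintype ι] [DecidableEq ι] {F : Type*} [Field F] {Q : (ι → F) → F}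
  {G : Matrix ι ι F}

theorem abelian_case [Fintype F] (hO : OData Q G) (h2 : 2 ≤ Fintype.card ι)
    (H N : Subgroup (GL ι F)) (hH : Iso G H)
    (hirr : ActsIrreducibly (matrixSet H)) (hNH : N ≤ H) (hnrm : Nrm H N)
    (hns : ¬ N ≤ scalars ι F) (hab : ⁅N, N⁆ = ⊥) : OBasic Q H := by
  have hN : Iso G N := fun x hx => hH x (hNH hx)
  exact abelian_case_core hO H N hH hNH hns
    (Cfsg.Agent.Lib.Helper69.OAsch.field_or_decomp hO H hH hirr (env N)
      (Cfsg.Agent.Lib.Helper58.Asch.nrm_env hnrm) (env_comm_of_abelian hab)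
      (Cfsg.Agent.Lib.Helper69.OAsch.adj_mem_cen hO N hN).1)
    (fun hD hq => Cfsg.Agent.Lib.Helper69.OAsch.frame_subfield hO H hH hD hq)

end Cfsg.Agent.Lib.Helper96.OAsch
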