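import Cfsg.Agent.Lib.Helper21.OAsch.Defs

set_option autoImplicit false

/-! # Piece O15d of the orthogonal campaign: the join of a permuted family of perfect subgroups -/

namespace Cfsg.Agent.Lib.Helper96.OAsch

open Cfsg Cfsg.Geo Matrix Cfsg.Agent.Lib.Helper13.Asch Cfsg.Agent.Lib.Helper21.OAsch
open scoped Kronecker MatrixGroups

variable {ι : Type} [Fintype ι] [DecidableEq ι] {F : Type*} [Field F] {Q : (ι → F) → F}
  {G : Matrix ι ι F}

theorem iSup_facts {H : Subgroup (GL ι F)} {t : ℕ} (ht : 2 ≤ t) (P : Fin t → Subgroup (GL ι F))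
    (hPH : ∀ i, P i ≤ H)
    (hperm : ∀ h ∈ H, ∃ σ : Equiv.Perm (Fin t), ∀ i,
      (P i).map (MulAut.conj h).toMonoidHom = P (σ i))
    (hns : ∀ i, ¬ P i ≤ scalars ι F) (hperf : ∀ i, ⁅P i, P i⁆ = P i) :
    (⨆ i, P i) ≤ H ∧ Nrm H (⨆ i, P i) ∧ ¬ (⨆ i, P i) ≤ scalars ι F ∧
      ⁅(⨆ i, P i), (⨆ i, P i)⁆ = ⨆ i, P i := by
  have hPP0 : ∀ i, P i ≤ ⨆ i, P i := fun i => le_iSup P i
  refine ⟨iSup_le hPH, ?_, fun h => hns ⟨0, by omega⟩ ((hPP0 _).trans h), le_antisymm ?_ ?_⟩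
  · intro h hh x hx
    obtain ⟨σ, hσ⟩ := hperm h hh
    induction hx using Subgroup.iSup_induction' with
    | hp i x hx =>
      apply hPP0 (σ i)
      rw [← hσ i]
      exact ⟨x, hx, rfl⟩
    | h1 => simp
    | hmul x y _ _ hx hy =>
      have e : h * (x * y) * h⁻¹ = (h * x * h⁻¹) * (h * y * h⁻¹) := by group
      rw [e]
      exact (⨆ i, P i).mul_mem hx hy
  · rw [Subgroup.commutator_le]
    intro a ha b hb
    exact (⨆ i, P i).mul_mem ((⨆ i, P i).mul_mem ((⨆ i, P i).mul_mem ha hb)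
      ((⨆ i, P i).inv_mem ha)) ((⨆ i, P i).inv_mem hb)
  · apply iSup_le
    intro i
    calc P i = ⁅P i, P i⁆ := (hperf i).symm
      _ ≤ _ := Subgroup.commutator_mono (hPP0 i) (hPP0 i)

end Cfsg.Agent.Lib.Helper96.OAsch
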