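import Cfsg.Agent.Lib.Helper60.Asch.K1
import Cfsg.Agent.Lib.Helper21.OAsch.Defs

set_option autoImplicit false

/-! # Piece O13 of the orthogonal campaign (core): a simple minimal normal subgroup -/

namespace Cfsg.Agent.Lib.Helper96.OAsch

open Cfsg Cfsg.Geo Matrix Cfsg.Agent.Lib.Helper13.Asch Cfsg.Agent.Lib.Helper21.OAsch
open Cfsg.Agent.Lib.Helper96.Asch Cfsg.Agent.Lib.Helper60.Asch
open scoped Kronecker MatrixGroups commutatorElement

variable {ι : Type} [Fintype ι] [DecidableEq ι] {F : Type*} [Field F] {Q : (ι → F) → F}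
  {G : Matrix ι ι F}

theorem residual_of_simple_orth_core [Fintype F] [Nonempty ι] {H N : Subgroup (GL ι F)}
    (h : MinNormal H N) (henv : env N = ⊤) (hperf : ⁅N, N⁆ = N)
    (hsimple : ∀ L : Subgroup (GL ι F), H ⊓ scalars ι F ≤ L → L ≤ N → Nrm N L →
      L = H ⊓ scalars ι F ∨ L = N)
    (O11 : ∀ F₀ : Subfield F, F₀ ≠ ⊤ → RealisableOver F₀ (matrixSet N) → C5 Q H)
    (O12 : ∀ (σ : F ≃+* F) (u : (ι → F) → (ι → F) → F), IsUnitaryForm σ u →
      FixesForm (matrixSet N) u → ∃ F₀ : Subfield F, F₀ ≠ ⊤ ∧ RealisableOver F₀ (matrixSet N)) :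
    C5 Q H ∨ InOrthogonalResidualClass H := by
  classical
  obtain ⟨Z, hZdef⟩ : ∃ Z, Z = H ⊓ scalars ι F := ⟨_, rfl⟩
  rw [← hZdef] at hsimple
  have hZsc : Z ≤ scalars ι F := hZdef ▸ inf_le_right
  have hZN : Z ≤ N := hZdef ▸ h.sc_le
  by_cases hsub : ∃ F₀ : Subfield F, F₀ ≠ ⊤ ∧ RealisableOver F₀ (matrixSet N)
  · obtain ⟨F₀, hF₀, hr⟩ := hsub
    exact Or.inl (O11 F₀ hF₀ hr)
  have hu : ¬ ∃ (σ : F ≃+* F) (f : (ι → F) → (ι → F) → F),
      IsUnitaryForm σ f ∧ FixesForm (matrixSet N) f := by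
    rintro ⟨σ, f, hf, hfix⟩
    exact hsub (O12 σ f hf hfix)
  right
  have core : ∀ M : Subgroup (GL ι F), M ≤ N → Nrm N M → M ≤ scalars ι F ∨ M = N := by
    intro M hMP hnM
    have hnN : Nrm N (M ⊔ Z) := nrm_sup hnM (nrm_of_le_scalars _ hZsc)
    rcases hsimple (M ⊔ Z) le_sup_right (sup_le hMP hZN) hnN with h1 | h1
    · left
      exact (le_sup_left.trans h1.le).trans hZsc
    · right
      apply le_antisymm hMP
      have h2 : N = ⁅M, M⁆ := by
        rw [← commutator_sup_scalars hZsc, h1, hperf]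
      rw [h2, Subgroup.commutator_le]
      intro a ha b hb
      rw [commutatorElement_def]
      exact M.mul_mem (M.mul_mem (M.mul_mem ha hb) (M.inv_mem ha)) (M.inv_mem hb)
  refine ⟨N, ⟨h.le, h.nrm, hperf, ?_, ?_, ?_, absIrr_of_env_top henv, ?_⟩, hu⟩
  · exact simple_quot N (scalars ι F) h.not_sc core
  · intro hc
    apply h.not_sc
    rw [← hperf]
    exact commutator_le_of_comm_quot N (scalars ι F) hc
  · -- centralizer
    intro g hg hgP
    have h1 : N ≤ Subgroup.centralizer {g} := by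
      rw [← hperf, Subgroup.commutator_le]
      intro a ha b hb
      rw [Subgroup.mem_centralizer_singleton_iff]
      have ea : g * a * g⁻¹ = a * (g * a * g⁻¹ * a⁻¹) := by
        rw [← scalar_commute (hgP a ha) a]
        group
      have eb : g * b * g⁻¹ = b * (g * b * g⁻¹ * b⁻¹) := by
        rw [← scalar_commute (hgP b hb) b]
        group
      have h3 : g * ⁅a, b⁆ * g⁻¹ = ⁅a, b⁆ := by
        have h4 : g * ⁅a, b⁆ * g⁻¹ = ⁅g * a * g⁻¹, g * b * g⁻¹⁆ := by
          rw [commutatorElement_def, commutatorElement_def]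
          group
        rw [h4, ea, eb, commutator_scalar_mul (hgP a ha) (hgP b hb)]
      rw [mul_inv_eq_iff_eq_mul] at h3
      exact h3.symm
    obtain ⟨c, hc⟩ := scalar_of_commute henv g.1 (by
      intro x hx
      have h2 := h1 hx
      rw [Subgroup.mem_centralizer_singleton_iff] at h2
      rw [← Units.val_mul, ← Units.val_mul, h2])
    rw [mem_scalars_iff]
    have hne0 : c ≠ 0 := by
      intro h0
      rw [h0, zero_smul] at hc
      exact g.ne_zero hc
    exact ⟨Units.mk0 c hne0, hc⟩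
  · intro F₀ hF₀ hr
    exact hsub ⟨F₀, hF₀, hr⟩

end Cfsg.Agent.Lib.Helper96.OAsch
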