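import Cfsg.Agent.Lib.Helper12.Asch.K2b
import Cfsg.Agent.Lib.Helper21.OAsch.Defs

set_option autoImplicit false

/-! # Piece O15c of the orthogonal campaign (core): an abelian nonscalar normal subgroup -/

namespace Cfsg.Agent.Lib.Helper96.OAsch

open Cfsg Cfsg.Geo Matrix Cfsg.Agent.Lib.Helper13.Asch Cfsg.Agent.Lib.Helper21.OAsch
open Cfsg.Agent.Lib.Helper12.Asch
open scoped Kronecker MatrixGroups

variable {ι : Type} [Fintype ι] [DecidableEq ι] {F : Type*} [Field F] {Q : (ι → F) → F}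
  {G : Matrix ι ι F}

/-- a decomposition gives one of the basic classes (given the piece O6) -/
theorem obasic_of_cdec [Fintype F] {H : Subgroup (GL ι F)}
    (O6 : CDec Q H 1 → ¬ (Fintype.card F).Prime → C5 Q H) {k : ℕ} (hk : CDec Q H k) :
    OBasic Q H := by
  have hpos : 0 < k := by
    obtain ⟨t, D, hD, -⟩ := hk
    exact hD.decomp.decomp.pos
  by_cases h1 : k = 1
  · subst h1
    by_cases hp : (Fintype.card F).Prime
    · exact Or.inr (Or.inr (Or.inr (Or.inl ⟨hp, hk⟩)))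
    · exact Or.inr (Or.inr (Or.inr (Or.inr (Or.inr (O6 hk hp)))))
  · exact Or.inr (Or.inr (Or.inl ⟨k, by omega, hk⟩))

/-- the adjoint of an isometry is its inverse -/
theorem adj_of_iso (hO : OData Q G) {x : GL ι F}
    (hx : (x : Matrix ι ι F)ᵀ * G * (x : Matrix ι ι F) = G) :
    adj G (x : Matrix ι ι F) = ((x⁻¹ : GL ι F) : Matrix ι ι F) := by
  unfold adj
  have h1 : (x : Matrix ι ι F)ᵀ * G = G * ((x⁻¹ : GL ι F) : Matrix ι ι F) := by
    calc (x : Matrix ι ι F)ᵀ * G
        = (x : Matrix ι ι F)ᵀ * G * ((x : Matrix ι ι F) * ((x⁻¹ : GL ι F) : Matrix ι ι F)) := by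
          rw [val_mul_inv, mul_one]
      _ = ((x : Matrix ι ι F)ᵀ * G * (x : Matrix ι ι F)) * ((x⁻¹ : GL ι F) : Matrix ι ι F) := by
          simp only [mul_assoc]
      _ = _ := by rw [hx]
  rw [mul_assoc, h1, ← mul_assoc, Matrix.nonsing_inv_mul _ hO.unit, one_mul]

theorem abelian_case_core [Fintype F] (hO : OData Q G)
    (H N : Subgroup (GL ι F)) (hH : Iso G H) (hNH : N ≤ H)
    (hns : ¬ N ≤ scalars ι F)
    (O5 : (∃ k, CDec Q H k) ∨
      ((∀ x ∈ env N, x ≠ 0 → ∃ y ∈ env N, x * y = 1) ∧ ∀ z ∈ env N, adj G z = z))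
    (O6 : CDec Q H 1 → ¬ (Fintype.card F).Prime → C5 Q H) : OBasic Q H := by
  rcases O5 with ⟨k, hk⟩ | ⟨hinv, hsa⟩
  · exact obasic_of_cdec O6 hk
  · exfalso
    apply hns
    intro x hx
    have h1 : ((x⁻¹ : GL ι F) : Matrix ι ι F) = (x : Matrix ι ι F) := by
      rw [← adj_of_iso hO (hH x (hNH hx))]
      exact hsa _ (mem_env hx)
    have h2 : (x : Matrix ι ι F) * (x : Matrix ι ι F) = 1 := by
      have := val_inv_mul x
      rwa [h1] at this
    have h3 : ((x : Matrix ι ι F) - 1) * ((x : Matrix ι ι F) + 1) = 0 := by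
      rw [sub_mul, mul_add, mul_add, h2]
      simp only [mul_one, one_mul]
      abel
    rw [mem_scalars_iff]
    by_cases h4 : (x : Matrix ι ι F) - 1 = 0
    · exact ⟨1, by rw [Units.val_one, one_smul]; exact sub_eq_zero.1 h4⟩
    · obtain ⟨y, hy, hxy⟩ := hinv _ (Subalgebra.sub_mem _ (mem_env hx) (Subalgebra.one_mem _)) h4
      have h5 : y * ((x : Matrix ι ι F) - 1) = 1 := by
        exact mul_eq_one_comm.1 hxy
      have h6 : (x : Matrix ι ι F) + 1 = 0 := by
        calc (x : Matrix ι ι F) + 1 = (y * ((x : Matrix ι ι F) - 1)) * ((x : Matrix ι ι F) + 1) := by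
              rw [h5, one_mul]
          _ = 0 := by rw [mul_assoc, h3, mul_zero]
      refine ⟨-1, ?_⟩
      rw [Units.val_neg, Units.val_one, neg_smul, one_smul]
      exact eq_neg_of_add_eq_zero_left h6

/-- commutativity of the enveloping algebra of an abelian group -/
theorem env_comm_of_abelian {N : Subgroup (GL ι F)} (hab : ⁅N, N⁆ = ⊥) :
    ∀ x ∈ env N, ∀ y ∈ env N, x * y = y * x := by
  apply env_commute
  intro x hx y hy
  have h1 := Subgroup.commutator_mem_commutator hx hy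
  rw [hab, Subgroup.mem_bot, commutatorElement_eq_one_iff_mul_comm] at h1
  exact h1

end Cfsg.Agent.Lib.Helper96.OAsch
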